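import Cfsg.Agent.H883.BS.Out
import Cfsg.Agent.H991.BS.Lin
import Cfsg.Agent.H953.DpC
import Cfsg.Agent.H304.PslTransfer
import Cfsg.Agent.S0279

/-!
# S5733, BS-R7: many missing large primes give a constant proportion of derangements (helper991)

`count_outD` : `OutD gT R` implies `|T| ≤ 400 nd R`.
-/

set_option autoImplicit false

namespace Cfsg.Agent.H991.BS

open Subgroup Cfsg Cfsg.Agent.OrdDiv Cfsg.Agent.H436 Cfsg.Agent.H915.GN Cfsg.Agent.H192.Dp Cfsg.Agent.H851.Dg
  Cfsg.Agent.H883.BS Cfsg.Agent.H200.LinFix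
open Cfsg.Agent.H278.El.AltNum (dimOf)
open Cfsg.Agent.H278.El.SporNum (IsCl)

/-- a linear group mapping onto `T`, for which the large primes are large -/
def LinDat (g : Grp) (T : Type) [Group T] : Prop :=
  ∃ (F : Type) (_ : Field F) (_ : Finite F) (ι : Type) (_ : Fintype ι) (_ : DecidableEq ι) (H : Type) (_ : Group H)
    (_ : Finite H) (ρ : H →* Matrix.GeneralLinearGroup ι F) (π : H →* T), Function.Injective ρ ∧
    Function.Surjective π ∧ Fintype.card ι = dimOf g ∧ ∀ e u, BigE g e u →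
      Ordd u (Nat.card F) e ∧ (u : F) ≠ 0 ∧ dimOf g < 2 * e ∧ ¬ u ∣ Nat.card π.ker ∧ u ∣ Nat.card T

/-- the bound -/
theorem LinDat.count {g : Grp} {T : Type} [Group T] [Finite T] (h : LinDat g T) (h0 : 0 < dimOf g) {R : Subgroup T}
    (hR : OutD g R) : Nat.card T ≤ 400 * nd R := by
  classical
  obtain ⟨F, _, _, ι, _, _, H, _, _, ρ, π, hρ, hπ, hdim, hbig⟩ := h
  obtain ⟨D, hD, hU⟩ := hR
  let U : ℕ → ℕ := fun e => if he : ∃ u, BigE g e u ∧ ¬ u ∣ Nat.card R then he.choose else 0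
  have hUs : ∀ e ∈ D, BigE g e (U e) ∧ ¬ U e ∣ Nat.card R := by
    intro e he
    have h1 := hU e he
    have h2 : U e = h1.choose := dif_pos h1
    rw [h2]
    exact h1.choose_spec
  refine nd_ge D U h0 hD (fun e he => (hUs e he).2) ?_ ?_
  · intro e he e' he' hne t h1 h2
    obtain ⟨a1, a2, a3, -, -⟩ := hbig e _ (hUs e he).1
    obtain ⟨b1, b2, b3, -, -⟩ := hbig e' _ (hUs e' he').1
    exact no_both_quot hρ π hπ (hUs e he).1.prime (hUs e' he').1.prime a1 b1 a2 b2 (by rw [hdim]; exact a3)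
      (by rw [hdim]; exact b3) hne t h1 h2
  · intro e he
    obtain ⟨a1, a2, a3, a4, a5⟩ := hbig e _ (hUs e he).1
    have h1 := count_lin hρ π hπ (hUs e he).1.prime a1 a2 (by rw [hdim]; exact a3) a4 a5
    rwa [hdim] at h1

theorem not_dvd_ker {H T : Type*} [Group H] [Finite H] [Group T] (π : H →* T) {u k : ℕ} (hu : u.Prime)
    (hk : ∀ z, π z = 1 → z ^ k = 1) (h : ¬ u ∣ k) : ¬ u ∣ Nat.card π.ker := by
  intro hd
  have := Fact.mk hu
  obtain ⟨z, hz⟩ := exists_prime_orderOf_dvd_card' u hd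
  have h1 : z ^ k = 1 := Subtype.ext (hk z.1 (MonoidHom.mem_ker.1 z.2))
  have h2 := orderOf_dvd_of_pow_eq_one h1
  rw [hz] at h2
  exact h h2

section arith

variable {q u e : ℕ}

theorem ordd_of (hq : 1 ≤ q) (he : orderOf (q : ZMod u) = e) : Ordd u q e := by
  intro m hm
  rw [← he, orderOf_dvd_iff_pow_eq_one, ← Nat.cast_pow]
  have h1 : 1 ≤ q ^ m := Nat.one_le_pow _ _ hq
  have h3 : ((q ^ m - 1 : ℕ) : ZMod u) = 0 := (ZMod.natCast_eq_zero_iff _ _).2 hm
  rw [Nat.cast_sub h1, Nat.cast_one] at h3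
  exact sub_eq_zero.1 h3

theorem not_dvd_of (hu : u.Prime) (he0 : 0 < e) (he : orderOf (q : ZMod u) = e) : ¬ u ∣ q := by
  intro h
  have := Fact.mk hu
  rw [(ZMod.natCast_eq_zero_iff _ _).2 h] at he
  have h1 : orderOf (0 : ZMod u) = 0 := by
    rw [orderOf_eq_zero_iff, isOfFinOrder_iff_pow_eq_one]
    rintro ⟨n, hn, h⟩
    rw [zero_pow hn.ne'] at h
    exact zero_ne_one h
  omega

theorem lt_of_ord (hu : u.Prime) (hq : ¬ u ∣ q) (he : orderOf (q : ZMod u) = e) : e < u := by
  have := Fact.mk hu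
  have h1 : (q : ZMod u) ≠ 0 := fun h => hq ((ZMod.natCast_eq_zero_iff _ _).1 h)
  have h2 := ZMod.orderOf_dvd_card_sub_one h1
  rw [he] at h2
  have h3 := Nat.le_of_dvd (by have := hu.two_le; omega) h2
  have := hu.two_le
  omega

theorem natCast_ne {F : Type*} [Field F] [Fintype F] (hu : u.Prime) (h : ¬ u ∣ Fintype.card F) : (u : F) ≠ 0 := by
  intro h1
  apply h
  obtain ⟨c, hc⟩ := CharP.exists F
  rw [CharP.cast_eq_zero_iff F c] at h1
  have hc1 : c ≠ 1 := CharP.char_ne_one F c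
  have h2 : u = c := ((hu.eq_one_or_self_of_dvd c h1).resolve_left hc1).symm
  subst h2
  rw [← CharP.cast_eq_zero_iff F u]
  exact FiniteField.cast_card_eq_zero F

end arith

section fam

theorem dat_psl {n q : ℕ} {T : Type} [Group T] [Finite T] (hT : IsNamed (.psl n q) T) (hn : 10 ≤ n) :
    LinDat (.psl n q) T := by
  obtain ⟨⟨F, _, _, hF, ⟨ε⟩⟩, -, -, -⟩ := hT
  subst hF
  classical
  have hfin : Finite (Matrix.SpecialLinearGroup (Fin n) F) := inferInstance
  refine ⟨F, inferInstance, inferInstance, Fin n, inferInstance, inferInstance, Matrix.SpecialLinearGroup (Fin n) F,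
    inferInstance, hfin, Matrix.SpecialLinearGroup.toGL, ε.symm.toMonoidHom.comp (QuotientGroup.mk' (center _)),
    Matrix.SpecialLinearGroup.toGL_injective, ε.symm.surjective.comp (QuotientGroup.mk'_surjective _),
    Fintype.card_fin n, ?_⟩
  rintro e u ⟨hu, ho, h1, h2⟩
  have hq : 2 ≤ Fintype.card F := Fintype.one_lt_card
  have huq := not_dvd_of hu (by omega) ho
  have hd := ordd_of (by omega) ho
  refine ⟨by rw [Nat.card_eq_fintype_card]; exact hd, natCast_ne hu huq, h1, ?_, ?_⟩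
  · refine not_dvd_ker _ hu (k := Nat.card (rootsOfUnity (max (Fintype.card (Fin n)) 1) F)) ?_ ?_
    · intro z hz
      have h3 : z ∈ center (Matrix.SpecialLinearGroup (Fin n) F) := by
        rw [← QuotientGroup.eq_one_iff]
        exact ε.symm.injective (hz.trans (map_one ε.symm).symm)
      have h4 : (⟨z, h3⟩ : center (Matrix.SpecialLinearGroup (Fin n) F)) ^
          Nat.card (rootsOfUnity (max (Fintype.card (Fin n)) 1) F) = 1 := by
        rw [← Nat.card_congr (Matrix.SpecialLinearGroup.center_equiv_rootsOfUnity (n := Fin n) (R := F)).toEquiv]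
        exact pow_card_eq_one'
      exact congrArg Subtype.val h4
    · intro h3
      have h4 : u ∣ Fintype.card F ^ 1 - 1 := by
        have h5 := h3.trans (Subgroup.card_subgroup_dvd_card (rootsOfUnity (max (Fintype.card (Fin n)) 1) F))
        rw [Nat.card_units, Nat.card_eq_fintype_card] at h5
        rwa [pow_one]
      have h6 := Nat.le_of_dvd one_pos (hd 1 h4)
      omega
  · rw [Nat.card_congr ε.toEquiv]
    exact H304.PslT.dvd_card (by omega) h2 ⟨hu, ho, huq⟩

theorem dat_psp {m q : ℕ} {T : Type} [Group T] [Finite T] (hT : IsNamed (.psp m q) T) (hn : 5 ≤ m) :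
    LinDat (.psp m q) T := by
  have hrow : ∀ e u, BigE (.psp m q) e u → u ∣ Nat.card T := fun e u hb =>
    (H953.Dp.psp_row hT (by omega) hb.1 ⟨e, ⟨by have := hb.2.2.2.1; omega, Or.inl ⟨hb.2.2.1, hb.2.2.2⟩⟩, hb.2.1⟩).dvd
  obtain ⟨⟨F, _, _, hF, ⟨ε⟩⟩, -, -, -⟩ := hT
  subst hF
  classical
  have hfin : Finite (Matrix.symplecticGroup (Fin m) F) := Subtype.finite
  refine ⟨F, inferInstance, inferInstance, Fin m ⊕ Fin m, inferInstance, inferInstance,
    Matrix.symplecticGroup (Fin m) F, inferInstance, hfin,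
    (Submonoid.subtype (Matrix.symplecticGroup (Fin m) F)).toHomUnits,
    ε.symm.toMonoidHom.comp (QuotientGroup.mk' (center _)),
    fun a b hab => Subtype.ext (congrArg Units.val hab), ε.symm.surjective.comp (QuotientGroup.mk'_surjective _),
    by rw [Fintype.card_sum, Fintype.card_fin]; exact (two_mul m).symm, ?_⟩
  intro e u hb
  obtain ⟨hu, ho, he, h1, h2⟩ := id hb
  have hq : 2 ≤ Fintype.card F := Fintype.one_lt_card
  have huq := not_dvd_of hu (by omega) ho
  have hlt := lt_of_ord hu huq ho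
  refine ⟨by rw [Nat.card_eq_fintype_card]; exact ordd_of (by omega) ho, natCast_ne hu huq,
    show 2 * m < 2 * e by omega, ?_, hrow e u hb⟩
  refine not_dvd_ker _ hu (k := 2) ?_ ?_
  · intro z hz
    have h1 : z ∈ center (Matrix.symplecticGroup (Fin m) F) := by
      rw [← QuotientGroup.eq_one_iff]
      exact ε.symm.injective (hz.trans (map_one ε.symm).symm)
    have h2 := S0246.result (F := F) rfl m (by omega)
    have h3 : (⟨z, h1⟩ : center (Matrix.symplecticGroup (Fin m) F)) ^ 2 = 1 := by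
      refine orderOf_dvd_iff_pow_eq_one.1 ((_root_.orderOf_dvd_natCard _).trans ?_)
      rw [h2]
      exact Nat.gcd_dvd_left _ _
    exact congrArg Subtype.val h3
  · intro h3
    have := Nat.le_of_dvd (by norm_num) h3
    omega

theorem dat_psu {n q : ℕ} {T : Type} [Group T] [Finite T] (hT : IsNamed (.psu n q) T) (hn : 10 ≤ n) :
    LinDat (.psu n q) T := by
  obtain ⟨⟨F, _, _, hF, ⟨ε⟩⟩, -, heq, -⟩ := hT
  classical
  have hfin : Finite (SU n F q) := inferInstance
  refine ⟨F, inferInstance, inferInstance, Fin n, inferInstance, inferInstance, SU n F q,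
    inferInstance, hfin, Matrix.SpecialLinearGroup.toGL.comp (SU n F q).subtype,
    ε.symm.toMonoidHom.comp (QuotientGroup.mk' (center _)),
    Matrix.SpecialLinearGroup.toGL_injective.comp (SU n F q).subtype_injective,
    ε.symm.surjective.comp (QuotientGroup.mk'_surjective _), Fintype.card_fin n, ?_⟩
  rintro e u ⟨hu, ho, hodd, h1, h2⟩
  have := Fact.mk hu
  have hq : 2 ≤ q := by
    by_contra hcon
    have h3 : q ^ 2 ≤ 1 := by
      have h4 : q = 0 ∨ q = 1 := by omega
      rcases h4 with rfl | rfl <;> norm_num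
    have := Fintype.one_lt_card (α := F)
    omega
  have hpow : ∀ k : ℕ, (-(q : ZMod u)) ^ k = 1 ↔ e ∣ k := fun k => by rw [← ho, orderOf_dvd_iff_pow_eq_one]
  have hord : Ordd u (Nat.card F) e := by
    intro m hm
    rw [Nat.card_eq_fintype_card, hF, ← pow_mul] at hm
    have h3 : 1 ≤ q ^ (2 * m) := Nat.one_le_pow _ _ (by omega)
    have h4 : ((q ^ (2 * m) - 1 : ℕ) : ZMod u) = 0 := (ZMod.natCast_eq_zero_iff _ _).2 hm
    rw [Nat.cast_sub h3, Nat.cast_one, sub_eq_zero, Nat.cast_pow] at h4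
    have h5 : (-(q : ZMod u)) ^ (2 * m) = 1 := by
      rw [Even.neg_pow (even_two_mul m), h4]
    exact (Nat.coprime_two_right.2 hodd).dvd_of_dvd_mul_left ((hpow _).1 h5)
  have huq : ¬ u ∣ q := by
    intro h3
    have h4 : (q : ZMod u) = 0 := (ZMod.natCast_eq_zero_iff _ _).2 h3
    have h5 := (hpow e).2 dvd_rfl
    rw [h4, neg_zero, zero_pow (by omega)] at h5
    exact zero_ne_one h5
  have huF : ¬ u ∣ Fintype.card F := by
    rw [hF]
    exact fun h => huq (hu.dvd_of_dvd_pow h)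
  have hq1 : ¬ u ∣ q + 1 := by
    intro h3
    have h4 : ((q + 1 : ℕ) : ZMod u) = 0 := (ZMod.natCast_eq_zero_iff _ _).2 h3
    have h5 : (-(q : ZMod u)) ^ 1 = 1 := by
      rw [pow_one]
      push_cast at h4
      linear_combination -h4
    have h6 := Nat.le_of_dvd one_pos ((hpow 1).1 h5)
    omega
  refine ⟨hord, natCast_ne hu huF, h1, ?_, ?_⟩
  · refine not_dvd_ker _ hu (k := q + 1) ?_ hq1
    intro z hz
    have h1 : z ∈ center (SU n F q) := by
      rw [← QuotientGroup.eq_one_iff]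
      exact ε.symm.injective (hz.trans (map_one ε.symm).symm)
    have h2 := S0279.result hF n (by omega)
    have h3 : (⟨z, h1⟩ : center (SU n F q)) ^ (q + 1) = 1 := by
      refine orderOf_dvd_iff_pow_eq_one.1 ((_root_.orderOf_dvd_natCard _).trans ?_)
      rw [h2]
      exact Nat.gcd_dvd_right _ _
    exact congrArg Subtype.val h3
  · have h3 : Nat.gcd n (q + 1) * (q + 1) * Nat.card T = q ^ (n * (n - 1) / 2) * prU q n := heq
    have h4 : u ∣ prU q n := by
      have h5 : u ∣ q ^ e + 1 := by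
        have h6 := (hpow e).2 dvd_rfl
        rw [hodd.neg_pow] at h6
        rw [← ZMod.natCast_eq_zero_iff]
        push_cast
        linear_combination -h6
      refine h5.trans ?_
      unfold prU
      refine List.dvd_prod (List.mem_map.2 ⟨e - 1, List.mem_range.2 (by omega), ?_⟩)
      have h6 : e - 1 + 1 = e := by omega
      rw [h6]
      have h7 : Even (e - 1) := by
        obtain ⟨k, hk⟩ := hodd
        exact ⟨k, by omega⟩
      have h8 : Nat.beq ((e - 1) % 2) 0 = true := by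
        rw [Nat.beq_eq]
        exact Nat.even_iff.1 h7
      rw [if_pos h8]
    have h5 : u ∣ Nat.gcd n (q + 1) * (q + 1) * Nat.card T := by
      rw [h3]
      exact Dvd.dvd.mul_left h4 _
    rcases hu.dvd_mul.1 h5 with h6 | h6
    · rcases hu.dvd_mul.1 h6 with h7 | h7
      · exact absurd (h7.trans (Nat.gcd_dvd_right _ _)) hq1
      · exact absurd h7 hq1
    · exact h6

end fam

section orth

open QuadraticMap Module Cfsg.Agent.LieClassical.OrthCore Cfsg.Agent.LieClassical.OrthTrans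
  Cfsg.Agent.LieClassical.OrthSimple Cfsg.Agent.LieClassical.OrthFinite
  Cfsg.Agent.ClassicalGeometry.OrthSemiForms Cfsg.Agent.LieClassical.OrthForms

theorem dat_orth {g : Grp} {F : Type} [Field F] [Fintype F] {ι : Type} [Fintype ι] [DecidableEq ι]
    {Q : QuadraticForm F (ι → F)} (hG : Good Q) {T : Type} [Group T] [Finite T] (ε : T ≃* POmega F ⇑Q)
    (hdim : Fintype.card ι = dimOf g)
    (hb : ∀ e u, BigE g e u → u.Prime ∧ orderOf ((Fintype.card F : ℕ) : ZMod u) = e ∧ 3 ≤ e ∧ dimOf g < 2 * e ∧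
      u ∣ Nat.card T) : LinDat g T := by
  refine ⟨F, inferInstance, inferInstance, ι, inferInstance, inferInstance, Cfsg.Omega F ⇑Q, inferInstance,
    inferInstance, (Cfsg.isometryGroup F ⇑Q).subtype.comp (Cfsg.Omega F ⇑Q).subtype,
    ε.symm.toMonoidHom.comp (QuotientGroup.mk' (center (Cfsg.Omega F ⇑Q))),
    (Subgroup.subtype_injective _).comp (Subgroup.subtype_injective _),
    ε.symm.surjective.comp (QuotientGroup.mk'_surjective _), hdim, ?_⟩
  intro e u hbe
  obtain ⟨hu, ho, he3, h1, h2⟩ := hb e u hbe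
  have hq : 2 ≤ Fintype.card F := Fintype.one_lt_card
  have huq := not_dvd_of hu (by omega) ho
  have hlt := lt_of_ord hu huq ho
  refine ⟨by rw [Nat.card_eq_fintype_card]; exact ordd_of (by omega) ho, natCast_ne hu huq, h1, ?_, h2⟩
  refine not_dvd_ker _ hu (k := 2) ?_ ?_
  · intro z hz
    have h1 : z ∈ center (Cfsg.Omega F ⇑Q) := by
      rw [← QuotientGroup.eq_one_iff]
      exact ε.symm.injective (hz.trans (map_one ε.symm).symm)
    rw [pow_two]
    exact H948.OnCyc.center_omega_sq hG h1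
  · intro h3
    have := Nat.le_of_dvd (by norm_num) h3
    omega

theorem dat_oodd {m q : ℕ} {T : Type} [Group T] [Finite T] (hT : IsNamed (.oodd m q) T) (hn : 5 ≤ m) :
    LinDat (.oodd m q) T := by
  have hrow : ∀ e u, BigE (.oodd m q) e u → u ∣ Nat.card T := fun e u hb =>
    (H953.Dp.oodd_row hT (by omega) hb.1 ⟨e, ⟨by have := hb.2.2.2.1; omega, Or.inl ⟨hb.2.2.1, hb.2.2.2⟩⟩, hb.2.1⟩).dvd
  obtain ⟨⟨F, _, _, hF, ⟨ε⟩⟩, ⟨-, ho, -⟩, -, -⟩ := hT
  subst hF
  have h2F : (2 : F) ≠ 0 := by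
    intro h0
    obtain ⟨n, hp, hn⟩ := FiniteField.card F (ringChar F)
    have h1 : ringChar F ∣ 2 := (ringChar.spec F 2).1 (by exact_mod_cast h0)
    have h2 : ringChar F = 2 := (Nat.prime_dvd_prime_iff_eq hp Nat.prime_two).1 h1
    rw [hn, h2] at ho
    exact (Nat.not_odd_iff_even.2 ((Nat.even_pow' n.pos.ne').2 even_two)) ho
  have hcard : Fintype.card (Unit ⊕ Fin m ⊕ Fin m) = 2 * m + 1 := by
    simp only [Fintype.card_sum, Fintype.card_fin, Fintype.card_unit]
    omega
  refine dat_orth (good_odd (F := F) (m := m) (by omega) h2F) (by rw [coe_oddForm]; exact ε) hcard fun e u hb =>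
    ⟨hb.1, hb.2.1, by have := hb.2.2.2.1; omega, ?_, hrow e u hb⟩
  change 2 * m + 1 < 2 * e
  have := hb.2.2.2.1
  omega

theorem dat_oplus {m q : ℕ} {T : Type} [Group T] [Finite T] (hT : IsNamed (.oplus m q) T) (hn : 5 ≤ m) :
    LinDat (.oplus m q) T := by
  have hrow : ∀ e u, BigE (.oplus m q) e u → u ∣ Nat.card T := fun e u hb =>
    (H953.Dp.oplus_row hT (by omega) hb.1 ⟨e, ⟨by have := hb.2.2.2.1; omega, Or.inl ⟨hb.2.2.1, hb.2.2.2.1, by
      have := hb.2.2.2.2; omega⟩⟩, hb.2.1⟩).dvd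
  obtain ⟨⟨F, _, _, hF, ⟨ε⟩⟩, -, -, -⟩ := hT
  subst hF
  have hcard : Fintype.card (Fin m ⊕ Fin m) = 2 * m := by
    rw [Fintype.card_sum, Fintype.card_fin, two_mul]
  refine dat_orth (good_plus (F := F) (m := m) (by omega)) (by rw [coe_plusForm]; exact ε) hcard fun e u hb =>
    ⟨hb.1, hb.2.1, by have := hb.2.2.2.1; omega, ?_, hrow e u hb⟩
  change 2 * m < 2 * e
  have := hb.2.2.2.1
  omega

theorem dat_ominus {m q : ℕ} {T : Type} [Group T] [Finite T] (hT : IsNamed (.ominus m q) T) (hn : 5 ≤ m) :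
    LinDat (.ominus m q) T := by
  have hrow : ∀ e u, BigE (.ominus m q) e u → u ∣ Nat.card T := fun e u hb =>
    (H953.Dp.ominus_row hT (by omega) hb.1 ⟨e, ⟨by have := hb.2.2.2.1; omega, Or.inl ⟨hb.2.2.1, hb.2.2.2⟩⟩,
      hb.2.1⟩).dvd
  obtain ⟨⟨F, _, _, a, b, hF, hab, ⟨ε⟩⟩, -, -, -⟩ := hT
  subst hF
  have hcard : Fintype.card ((Fin (m - 1) ⊕ Fin (m - 1)) ⊕ Fin 2) = 2 * m := by
    simp only [Fintype.card_sum, Fintype.card_fin]
    omega
  refine dat_orth (good_minus (F := F) (m := m - 1) (by omega) a b hab) (by rw [coe_minusForm]; exact ε) hcard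
    fun e u hb => ⟨hb.1, hb.2.1, by have := hb.2.2.2.1; omega, ?_, hrow e u hb⟩
  change 2 * m < 2 * e
  have := hb.2.2.2.1
  omega

end orth

theorem dat {g : Grp} {T : Type} [Group T] [Finite T] (hT : IsNamed g T) (hg : IsCl g) (h : 11 ≤ dimOf g) :
    LinDat g T := by
  cases g with
  | psl n q => exact dat_psl hT (by change 11 ≤ n at h; omega)
  | psu n q => exact dat_psu hT (by change 11 ≤ n at h; omega)
  | psp m q => exact dat_psp hT (by change 11 ≤ 2 * m at h; omega)
  | oodd m q => exact dat_oodd hT (by change 11 ≤ 2 * m + 1 at h; omega)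
  | oplus m q => exact dat_oplus hT (by change 11 ≤ 2 * m at h; omega)
  | ominus m q => exact dat_ominus hT (by change 11 ≤ 2 * m at h; omega)
  | _ => exact hg.elim

/-- **BS-R7.** -/
theorem count_outD : ∃ c : ℝ, 0 < c ∧ ∃ N0 : ℕ, ∀ (gT : Grp) (T : Type) [Group T] [Finite T], IsNamed gT T →
    IsCl gT → N0 ≤ dimOf gT → ∀ R : Subgroup T, OutD gT R → c * (Nat.card T : ℝ) ≤ nd R := by
  refine ⟨1 / 400, by norm_num, 11, fun gT T _ _ hT hcl h11 R hR => ?_⟩
  have h1 := (dat hT hcl h11).count (by omega) hR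
  have h2 : (Nat.card T : ℝ) ≤ 400 * nd R := by exact_mod_cast h1
  linarith

end Cfsg.Agent.H991.BS
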